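import Mathlib
import Cfsg.Agent.Lib.Helper43.AutSp4.Count
import Cfsg.Prelude.Def_KGroupFacts

set_option autoImplicit false

/-!
# `Out(PSp_4(2^f))` is cyclic of order `2f`
-/

namespace Cfsg.Agent.Lib.Helper43.AutSp4

open Matrix Cfsg.Agent.Lib.Helper13 Cfsg.Agent.Lib.Helper43.AutPSp

variable {F : Type*} [Field F]

theorem frob2_pow_apply [Finite F] (h2 : (2 : F) = 0) (n : ℕ) (x : F) :
    ((frob2 h2) ^ n) x = x ^ 2 ^ n := by
  rw [RingAut.coe_pow]
  have : ⇑(frob2 h2) = fun x : F => x ^ 2 := rfl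
  rw [this, pow_iterate]

/-- Every automorphism of a finite field of characteristic two is a power of the Frobenius. -/
theorem ringAut_eq_frob_pow [Finite F] (h2 : (2 : F) = 0) (τ : RingAut F) :
    ∃ n : ℕ, τ = (frob2 h2) ^ n := by
  haveI : CharP F 2 := CharTwo.of_one_ne_zero_of_two_eq_zero one_ne_zero h2
  letI : Algebra (ZMod 2) F := ZMod.algebra F 2
  let e : F ≃ₐ[ZMod 2] F := AlgEquiv.ofRingEquiv (f := τ) (fun r => by
    have : (τ : F →+* F).comp (algebraMap (ZMod 2) F) = algebraMap (ZMod 2) F :=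
      Subsingleton.elim _ _
    exact DFunLike.congr_fun this r)
  obtain ⟨n, hn⟩ := (FiniteField.bijective_frobeniusAlgEquivOfAlgebraic_pow (ZMod 2) F).2 e
  refine ⟨n.1, ?_⟩
  ext x
  rw [frob2_pow_apply]
  have h1 : τ x = e x := rfl
  have hn' : FiniteField.frobeniusAlgEquivOfAlgebraic (ZMod 2) F ^ n.1 = e := hn
  rw [h1, ← hn', AlgEquiv.coe_pow, FiniteField.coe_frobeniusAlgEquivOfAlgebraic_iterate, ZMod.card]

/-- **`Out(PSp_4(2^f))`** is cyclic of order `2f`, generated by the class of the exceptional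
automorphism. -/
theorem out_sp4_two [Fintype F] (h2 : (2 : F) = 0) {f : ℕ} (hF : Fintype.card F = 2 ^ f) :
    IsCyclic (Cfsg.Out (Cfsg.PSp 2 F)) ∧ Nat.card (Cfsg.Out (Cfsg.PSp 2 F)) = 2 * f := by
  have hInn : (cg : ↥(Cfsg.GSp 2 F) →* MulAut (Cfsg.PSp 2 F)).range = Cfsg.Inn (Cfsg.PSp 2 F) :=
    range_cg_eq_inn h2
  constructor
  · rw [isCyclic_iff_exists_zpowers_eq_top]
    refine ⟨QuotientGroup.mk (Psi h2), ?_⟩
    rw [eq_top_iff]
    rintro x -
    have hstab : ∀ α ∈ tvStab 2 F, (QuotientGroup.mk α : Cfsg.Out (Cfsg.PSp 2 F)) ∈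
        Subgroup.zpowers (QuotientGroup.mk (Psi h2) : Cfsg.Out (Cfsg.PSp 2 F)) := by
      intro α hα
      obtain ⟨g, τ, rfl⟩ := tvStab_structure (le_refl 2) α hα
      obtain ⟨n, rfl⟩ := ringAut_eq_frob_pow h2 τ
      have h1 : (QuotientGroup.mk (cg g) : Cfsg.Out (Cfsg.PSp 2 F)) = 1 := by
        rw [QuotientGroup.eq_one_iff, ← hInn]
        exact ⟨g, rfl⟩
      rw [QuotientGroup.mk_mul, h1, one_mul, map_pow, ← Psi_sq h2, QuotientGroup.mk_pow,
        QuotientGroup.mk_mul]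
      exact Subgroup.pow_mem _
        (Subgroup.mul_mem _ (Subgroup.mem_zpowers _) (Subgroup.mem_zpowers _)) n
    obtain ⟨α, rfl⟩ := QuotientGroup.mk_surjective x
    by_cases hα : α ∈ tvStab 2 F
    · exact hstab α hα
    · have h3 := tvStab_dichotomy h2 (le_refl 2) α (Psi h2) hα (Psi_not_mem h2)
      have e : α = Psi h2 * ((Psi h2)⁻¹ * α) := by rw [mul_inv_cancel_left]
      rw [e, QuotientGroup.mk_mul]
      exact Subgroup.mul_mem _ (Subgroup.mem_zpowers _) (hstab _ h3)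
  · have h1 := card_aut_sp4_two h2 (p := 2) hF
    have h2' := Subgroup.card_mul_index (Cfsg.Inn (Cfsg.PSp 2 F))
    have h3 : Nat.card (Cfsg.Inn (Cfsg.PSp 2 F)) =
        Nat.card ↥(Matrix.symplecticGroup (Fin 2) F) := by
      rw [← hInn, card_range_cg (le_refl 2)]
    rw [h3, h1] at h2'
    have hpos : 0 < Nat.card ↥(Matrix.symplecticGroup (Fin 2) F) := Nat.card_pos
    have : Nat.card ↥(Matrix.symplecticGroup (Fin 2) F) * (Cfsg.Inn (Cfsg.PSp 2 F)).index =
        Nat.card ↥(Matrix.symplecticGroup (Fin 2) F) * (2 * f) := by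
      rw [h2']
      ring
    exact Nat.eq_of_mul_eq_mul_left hpos this

end Cfsg.Agent.Lib.Helper43.AutSp4
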